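import Mathlib
import Cfsg.Agent.Lib.Helper70.OPar.Defs
import Cfsg.Agent.Lib.Helper13.OHyp.EConj

/-!
# OPAR (S5989), package [EXEK]: elements of order `r` in even dimension

Split off a nonsingular vector `v`; on `v^⊥` (odd dimension) use the OHYP package `PkgExist`,
extend by the identity on `⟨v⟩` and transport back with `PkgEConj` (landed).
-/

set_option autoImplicit false

namespace Cfsg.Agent.Lib.Helper72.OPar

open Matrix Cfsg.Agent.Lib.Helper23.OHyp

universe u

section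

variable {F : Type u} [Field F] {ι : Type} [Fintype ι] [DecidableEq ι]

theorem polar_self {Q : (ι → F) → F} (hQ : Cfsg.Geo.IsNondegenerateQuadraticForm Q)
    (v : ι → F) : QuadraticMap.polar Q v v = 2 * Q v := by
  have h1 : v + v = (2 : F) • v := by rw [two_smul]
  unfold QuadraticMap.polar
  rw [h1, hQ.smul]
  ring

theorem q_add {Q : (ι → F) → F} (x y : ι → F) :
    Q (x + y) = Q x + Q y + QuadraticMap.polar Q x y := by
  unfold QuadraticMap.polar
  ring

theorem exists_q_ne_zero [Nonempty ι] {Q : (ι → F) → F}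
    (hQ : Cfsg.Geo.IsNondegenerateQuadraticForm Q) : ∃ v : ι → F, Q v ≠ 0 := by
  obtain ⟨i⟩ := ‹Nonempty ι›
  have hw : (Pi.single i (1 : F) : ι → F) ≠ 0 := by
    intro h
    have := congrFun h i
    simp at this
  obtain ⟨x, hx⟩ := (hQ.nondegenerate _ hw).1
  by_contra hcon
  push Not at hcon
  apply hx
  have := q_add (Q := Q) x (Pi.single i (1 : F))
  rw [hcon, hcon, hcon] at this
  simpa using this.symm

/-- the linear functional `y ↦ B(v, y)` -/
def polarL {Q : (ι → F) → F} (hQ : Cfsg.Geo.IsNondegenerateQuadraticForm Q) (v : ι → F) :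
    (ι → F) →ₗ[F] F where
  toFun y := QuadraticMap.polar Q v y
  map_add' x y := hQ.polar_bilinear.add_right v x y
  map_smul' c x := by
    simp only [RingHom.id_apply, smul_eq_mul]
    exact hQ.polar_bilinear.smul_right c v x

theorem polarL_apply {Q : (ι → F) → F} (hQ : Cfsg.Geo.IsNondegenerateQuadraticForm Q)
    (v y : ι → F) : polarL hQ v y = QuadraticMap.polar Q v y := rfl

theorem finrank_ker_polarL {Q : (ι → F) → F} (hQ : Cfsg.Geo.IsNondegenerateQuadraticForm Q)
    (v : ι → F) (hv : QuadraticMap.polar Q v v ≠ 0) :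
    Module.finrank F ↥(LinearMap.ker (polarL hQ v)) + 1 = Fintype.card ι := by
  have hsurj : Function.Surjective (polarL hQ v) := by
    intro a
    refine ⟨(a / QuadraticMap.polar Q v v) • v, ?_⟩
    rw [map_smul, polarL_apply, smul_eq_mul]
    field_simp
  have h1 := LinearMap.finrank_range_add_finrank_ker (polarL hQ v)
  rw [LinearMap.range_eq_top.mpr hsurj, finrank_top, Module.finrank_self,
    Module.finrank_fintype_fun_eq_card] at h1
  omega

/-- the block embedding `A ↦ 1 ⊕ A` -/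
def blkHom (k : ℕ) : Matrix (Fin k) (Fin k) F →* Matrix (Unit ⊕ Fin k) (Unit ⊕ Fin k) F where
  toFun A := Matrix.fromBlocks 1 0 0 A
  map_one' := Matrix.fromBlocks_one
  map_mul' A B := by
    simp [Matrix.fromBlocks_multiply]

theorem blkHom_injective (k : ℕ) : Function.Injective (blkHom (F := F) k) := by
  intro A B h
  exact (Matrix.fromBlocks_inj.mp h).2.2.2

theorem blk_mulVec (k : ℕ) (A : Matrix (Fin k) (Fin k) F) (w : Unit ⊕ Fin k → F) :
    (Matrix.fromBlocks (1 : Matrix Unit Unit F) 0 0 A) *ᵥ w =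
      Sum.elim (fun u => w (Sum.inl u)) (A *ᵥ (fun s => w (Sum.inr s))) := by
  rw [Matrix.fromBlocks_mulVec]
  ext (u | s)
  · simp
  · simp [Function.comp_def]

theorem mem_fixSp_iff {κ : Type} [Fintype κ] [DecidableEq κ] (X : Matrix κ κ F) (w : κ → F) :
    w ∈ fixSp X ↔ X *ᵥ w = w := by
  simp [fixSp, LinearMap.mem_ker, sub_eq_zero, Matrix.toLin'_apply]

theorem mem_fixSp_blk (k : ℕ) (A : Matrix (Fin k) (Fin k) F) (w : Unit ⊕ Fin k → F) :
    w ∈ fixSp (Matrix.fromBlocks (1 : Matrix Unit Unit F) 0 0 A) ↔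
      (fun s => w (Sum.inr s)) ∈ fixSp A := by
  rw [mem_fixSp_iff, mem_fixSp_iff, blk_mulVec]
  constructor
  · intro h
    funext s
    exact congrFun h (Sum.inr s)
  · intro h
    funext x
    rcases x with u | s
    · rfl
    · exact congrFun h s

/-- the fixed space of `1 ⊕ A` is `F × fixSp A` -/
noncomputable def fixEquiv (k : ℕ) (A : Matrix (Fin k) (Fin k) F) :
    ↥(fixSp (Matrix.fromBlocks (1 : Matrix Unit Unit F) 0 0 A)) ≃ₗ[F] F × ↥(fixSp A) where
  toFun w := (w.1 (Sum.inl ()), ⟨fun s => w.1 (Sum.inr s), (mem_fixSp_blk k A w.1).mp w.2⟩)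
  map_add' w w' := rfl
  map_smul' c w := rfl
  invFun p := ⟨Sum.elim (fun _ => p.1) p.2.1, (mem_fixSp_blk k A _).mpr (by simp [p.2.2])⟩
  left_inv w := by
    apply Subtype.ext
    funext x
    rcases x with u | s <;> rfl
  right_inv p := by
    rcases p with ⟨a, u, hu⟩
    rfl

theorem finrank_fixSp_blk (k : ℕ) (A : Matrix (Fin k) (Fin k) F) :
    Module.finrank F ↥(fixSp (Matrix.fromBlocks (1 : Matrix Unit Unit F) 0 0 A)) =
      1 + Module.finrank F ↥(fixSp A) := by
  rw [(fixEquiv k A).finrank_eq, Module.finrank_prod, Module.finrank_self]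


theorem blk_isometry (k : ℕ) (Q₁ : (Fin k → F) → F) (a : F) (x₁ : GL (Fin k) F)
    (hx₁ : x₁ ∈ Cfsg.isometryGroup F Q₁) :
    Units.map (blkHom (F := F) k) x₁ ∈ Cfsg.isometryGroup F
      (fun w : Unit ⊕ Fin k → F => a * (w (Sum.inl ())) ^ 2 + Q₁ (fun s => w (Sum.inr s))) := by
  intro u w
  have hv : ((Units.map (blkHom (F := F) k) x₁ : GL (Unit ⊕ Fin k) F) :
      Matrix (Unit ⊕ Fin k) (Unit ⊕ Fin k) F) =
      Matrix.fromBlocks 1 0 0 (x₁ : Matrix (Fin k) (Fin k) F) := rfl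
  have h3 : Q₁ ((x₁ : Matrix (Fin k) (Fin k) F) *ᵥ (fun s => u (Sum.inr s))) =
      Q₁ (fun s => u (Sum.inr s)) := hx₁ _ (fun s => u (Sum.inr s))
  show a * (((Units.map (blkHom (F := F) k) x₁ : GL (Unit ⊕ Fin k) F) :
      Matrix (Unit ⊕ Fin k) (Unit ⊕ Fin k) F) *ᵥ u) (Sum.inl ()) ^ 2 +
      Q₁ (fun s => (((Units.map (blkHom (F := F) k) x₁ : GL (Unit ⊕ Fin k) F) :
      Matrix (Unit ⊕ Fin k) (Unit ⊕ Fin k) F) *ᵥ u) (Sum.inr s)) =
      a * (u (Sum.inl ())) ^ 2 + Q₁ (fun s => u (Sum.inr s))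
  rw [hv, blk_mulVec]
  simp only [Sum.elim_inl, Sum.elim_inr]
  rw [h3]

theorem blk_order (k : ℕ) (x₁ : GL (Fin k) F) :
    orderOf (Units.map (blkHom (F := F) k) x₁ : GL (Unit ⊕ Fin k) F) = orderOf x₁ :=
  orderOf_injective (Units.map (blkHom (F := F) k)) (Units.map_injective (blkHom_injective k)) x₁

theorem blk_finrank (k : ℕ) (x₁ : GL (Fin k) F) :
    Module.finrank F ↥(fixSp ((Units.map (blkHom (F := F) k) x₁ : GL (Unit ⊕ Fin k) F) :
      Matrix (Unit ⊕ Fin k) (Unit ⊕ Fin k) F)) =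
      1 + Module.finrank F ↥(fixSp (x₁ : Matrix (Fin k) (Fin k) F)) :=
  finrank_fixSp_blk k _

/-- splitting off a nonsingular vector: `Q ≅ ⟨a⟩ ⊥ Q₁` -/
theorem exists_split {Q : (ι → F) → F} (hQ : Cfsg.Geo.IsNondegenerateQuadraticForm Q)
    (h2 : (2 : F) ≠ 0) (k : ℕ) (hk : Fintype.card ι = k + 1) :
    ∃ (Q₁ : (Fin k → F) → F) (a : F) (e : (ι → F) ≃ₗ[F] (Unit ⊕ Fin k → F)),
      Cfsg.Geo.IsNondegenerateQuadraticForm Q₁ ∧
      ∀ y, Q y = 1 * (a * (e y (Sum.inl ())) ^ 2 + Q₁ (fun s => e y (Sum.inr s))) := by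
  have hne : Nonempty ι := by
    rw [← Fintype.card_pos_iff]; omega
  obtain ⟨v, hv⟩ := exists_q_ne_zero hQ
  have hvv : QuadraticMap.polar Q v v ≠ 0 := by
    rw [polar_self hQ]
    exact mul_ne_zero h2 hv
  have hB := hQ.polar_bilinear
  have hU := finrank_ker_polarL hQ v hvv
  have hfr : Module.finrank F (Fin k → F) = Module.finrank F ↥(LinearMap.ker (polarL hQ v)) := by
    rw [Module.finrank_fintype_fun_eq_card, Fintype.card_fin]
    omega
  obtain ⟨φ, -⟩ : ∃ φ : (Fin k → F) ≃ₗ[F] ↥(LinearMap.ker (polarL hQ v)), φ = φ :=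
    ⟨LinearEquiv.ofFinrankEq _ _ hfr, rfl⟩
  have hφU : ∀ w, QuadraticMap.polar Q v ((φ w : ↥(LinearMap.ker (polarL hQ v))) : ι → F) = 0 :=
    fun w => LinearMap.mem_ker.mp (φ w).2
  obtain ⟨Q₁, hQ₁d⟩ : ∃ Q₁ : (Fin k → F) → F,
      ∀ w, Q₁ w = Q ((φ w : ↥(LinearMap.ker (polarL hQ v))) : ι → F) := ⟨_, fun _ => rfl⟩
  have hpol : ∀ w w', QuadraticMap.polar Q₁ w w' =
      QuadraticMap.polar Q ((φ w : ↥(LinearMap.ker (polarL hQ v))) : ι → F)
        ((φ w' : ↥(LinearMap.ker (polarL hQ v))) : ι → F) := by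
    intro w w'
    simp only [QuadraticMap.polar, hQ₁d, map_add, Submodule.coe_add]
  have hQ₁ : Cfsg.Geo.IsNondegenerateQuadraticForm Q₁ := by
    refine ⟨?_, ⟨?_, ?_, ?_, ?_⟩, ?_⟩
    · intro c w
      rw [hQ₁d, hQ₁d, map_smul, Submodule.coe_smul]
      exact hQ.smul c _
    · intro x y w
      rw [hpol, hpol, hpol, map_add, Submodule.coe_add]
      exact hB.add_left _ _ _
    · intro c x w
      rw [hpol, hpol, map_smul, Submodule.coe_smul]
      exact hB.smul_left _ _ _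
    · intro w x y
      rw [hpol, hpol, hpol, map_add, Submodule.coe_add]
      exact hB.add_right _ _ _
    · intro c w x
      rw [hpol, hpol, map_smul, Submodule.coe_smul]
      exact hB.smul_right _ _ _
    · intro w hw
      have hu : ((φ w : ↥(LinearMap.ker (polarL hQ v))) : ι → F) ≠ 0 := by
        intro h
        apply hw
        have : φ w = 0 := Subtype.ext h
        simpa using this
      obtain ⟨y, hy⟩ := (hQ.nondegenerate _ hu).2
      have hmem : y - (QuadraticMap.polar Q v y / QuadraticMap.polar Q v v) • v ∈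
          LinearMap.ker (polarL hQ v) := by
        rw [LinearMap.mem_ker, map_sub, map_smul, polarL_apply, polarL_apply, smul_eq_mul]
        field_simp
        ring
      have hval : QuadraticMap.polar Q ((φ w : ↥(LinearMap.ker (polarL hQ v))) : ι → F)
          (y - (QuadraticMap.polar Q v y / QuadraticMap.polar Q v v) • v) ≠ 0 := by
        have e1 : y - (QuadraticMap.polar Q v y / QuadraticMap.polar Q v v) • v =
            y + (-(QuadraticMap.polar Q v y / QuadraticMap.polar Q v v)) • v := by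
          rw [neg_smul, sub_eq_add_neg]
        rw [e1, hB.add_right, hB.smul_right,
          QuadraticMap.polar_comm Q ((φ w : ↥(LinearMap.ker (polarL hQ v))) : ι → F) v, hφU w,
          mul_zero, add_zero]
        exact hy
      have hsec : ∃ x, QuadraticMap.polar Q₁ w x ≠ 0 := by
        refine ⟨φ.symm ⟨_, hmem⟩, ?_⟩
        rw [hpol, LinearEquiv.apply_symm_apply]
        exact hval
      refine ⟨?_, hsec⟩
      obtain ⟨x, hx⟩ := hsec
      exact ⟨x, by rw [QuadraticMap.polar_comm]; exact hx⟩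
  obtain ⟨ψ, hψ⟩ : ∃ ψ : (Unit ⊕ Fin k → F) →ₗ[F] (ι → F), ∀ w, ψ w = w (Sum.inl ()) • v +
      ((φ (fun s => w (Sum.inr s)) : ↥(LinearMap.ker (polarL hQ v))) : ι → F) :=
    ⟨(LinearMap.proj (Sum.inl ())).smulRight v +
      (LinearMap.ker (polarL hQ v)).subtype ∘ₗ (φ : (Fin k → F) →ₗ[F] _) ∘ₗ
        (LinearMap.funLeft F F Sum.inr), fun w => rfl⟩
  have h0 : QuadraticMap.polar Q v (0 : ι → F) = 0 := by
    have := hB.smul_right 0 v 0
    simpa using this
  have hψinj : Function.Injective ψ := by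
    rw [← LinearMap.ker_eq_bot, LinearMap.ker_eq_bot']
    intro w hw
    rw [hψ] at hw
    have h1 : QuadraticMap.polar Q v (w (Sum.inl ()) • v +
        ((φ (fun s => w (Sum.inr s)) : ↥(LinearMap.ker (polarL hQ v))) : ι → F)) =
        QuadraticMap.polar Q v 0 := by rw [hw]
    rw [hB.add_right, hB.smul_right, hφU, h0, add_zero] at h1
    have ha : w (Sum.inl ()) = 0 := by
      rcases mul_eq_zero.mp h1 with h | h
      · exact h
      · exact absurd h hvv
    rw [ha, zero_smul, zero_add] at hw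
    have hφ0 : φ (fun s => w (Sum.inr s)) = 0 := Subtype.ext hw
    have hw0 : (fun s => w (Sum.inr s)) = 0 := by simpa using hφ0
    funext x
    rcases x with u | s
    · exact ha
    · exact congrFun hw0 s
  have hdim : Module.finrank F (Unit ⊕ Fin k → F) = Module.finrank F (ι → F) := by
    rw [Module.finrank_fintype_fun_eq_card, Module.finrank_fintype_fun_eq_card, hk]
    simp
    omega
  refine ⟨Q₁, Q v, (ψ.linearEquivOfInjective hψinj hdim).symm, hQ₁, ?_⟩
  intro y
  have hy : y = ψ ((ψ.linearEquivOfInjective hψinj hdim).symm y) := by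
    have := (ψ.linearEquivOfInjective hψinj hdim).apply_symm_apply y
    rw [LinearMap.linearEquivOfInjective_apply] at this
    exact this.symm
  rw [one_mul]
  conv_lhs => rw [hy, hψ, q_add (Q := Q), hQ.smul, hB.smul_left, hφU, mul_zero, add_zero, ← hQ₁d]
  ring

end

/-- Package EXEK. -/
theorem pkgExeK_of (hE : PkgExist.{u}) : Cfsg.Agent.Lib.Helper70.OPar.PkgExeK.{u} := by
  intro F _ _ ι _ _ Q hQ h2 heven r hr hr2 hrq j hj hle
  obtain ⟨k, hk⟩ : ∃ k, Fintype.card ι = k + 1 := ⟨Fintype.card ι - 1, by omega⟩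
  obtain ⟨Q₁, a, e, hQ₁, hQe⟩ := exists_split hQ h2 k hk
  have hodd : Odd (Fintype.card (Fin k)) := by
    rw [Fintype.card_fin]
    rcases heven with ⟨t, ht⟩
    exact ⟨t - 1, by omega⟩
  have hle' : cc (Fintype.card F) r * j + 1 ≤ Fintype.card (Fin k) := by
    rw [Fintype.card_fin]; omega
  obtain ⟨x₁, hx₁, hx₁o, hx₁f⟩ := hE F (Fin k) Q₁ hQ₁ h2 hodd r hr hr2 hrq j hj hle'
  have hx' := blk_isometry k Q₁ a x₁ hx₁
  obtain ⟨x, hx, hxo, hxf⟩ := Cfsg.Agent.Lib.Helper13.OHyp.pkgEConj F ι (Unit ⊕ Fin k) Q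
    (fun w : Unit ⊕ Fin k → F => a * (w (Sum.inl ())) ^ 2 + Q₁ (fun s => w (Sum.inr s))) 1 e
    one_ne_zero hQe _ hx'
  refine ⟨x, hx, ?_, ?_⟩
  · rw [hxo, blk_order, hx₁o]
  · rw [hxf, blk_finrank]
    rw [Fintype.card_fin] at hx₁f
    omega

end Cfsg.Agent.Lib.Helper72.OPar
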